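import Cfsg.Prelude.Def_Quasithin
import Cfsg.Agent.QTUniq.SylowSup
import Cfsg.Agent.TwoFusion.PerfCore

/-!
# `𝒞`-components: first properties

`calC H` is the set of minimal nontrivial perfect subnormal subgroups of `H`.
-/

set_option autoImplicit false

namespace Cfsg.Agent.QTUniq.CComp

open Subgroup Cfsg.Agent.TwoFusion.PerfCore

variable {G : Type*} [Group G]

/-- relative form of `calC`: `L ≤ H` and `L`, as a subgroup of `H`, is a `𝒞`-component of `H` -/
theorem mem_calC_iff {L H : Subgroup G} (hLH : L ≤ H) :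
    L.subgroupOf H ∈ calC ↥H ↔
      L ≠ ⊥ ∧ ⁅L, L⁆ = L ∧ (L.subgroupOf H).IsSubnormal ∧
        ∀ K : Subgroup G, K < L → ¬ (K ≠ ⊥ ∧ ⁅K, K⁆ = K ∧ (K.subgroupOf H).IsSubnormal) := by
  have hmap : ∀ {K : Subgroup G}, K ≤ H → (K.subgroupOf H).map H.subtype = K := by
    intro K hK
    rw [Subgroup.subgroupOf_map_subtype, inf_eq_left]
    exact hK
  have hperf : ∀ {K : Subgroup G}, K ≤ H → (⁅K.subgroupOf H, K.subgroupOf H⁆ = K.subgroupOf H ↔ ⁅K, K⁆ = K) := by
    intro K hK
    rw [← (Subgroup.map_injective H.subtype_injective).eq_iff, Subgroup.map_commutator, hmap hK]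
  have hbot : ∀ {K : Subgroup G}, K ≤ H → (K.subgroupOf H = ⊥ ↔ K = ⊥) := by
    intro K hK
    rw [← (Subgroup.map_injective H.subtype_injective).eq_iff, hmap hK, Subgroup.map_bot]
  constructor
  · rintro ⟨h1, h2, h3, h4⟩
    refine ⟨fun h => h1 ((hbot hLH).2 h), (hperf hLH).1 h2, h3, ?_⟩
    rintro K hK ⟨h5, h6, h7⟩
    have hKH : K ≤ H := hK.le.trans hLH
    refine h4 (K.subgroupOf H) ?_ ⟨fun h => h5 ((hbot hKH).1 h), (hperf hKH).2 h6, h7⟩
    refine lt_of_le_of_ne (Subgroup.comap_mono hK.le) fun h => hK.ne ?_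
    have := congrArg (Subgroup.map H.subtype) h
    rwa [hmap hKH, hmap hLH] at this
  · rintro ⟨h1, h2, h3, h4⟩
    refine ⟨fun h => h1 ((hbot hLH).1 h), (hperf hLH).2 h2, h3, ?_⟩
    rintro K hK ⟨h5, h6, h7⟩
    have hKeq : (K.map H.subtype).subgroupOf H = K := by
      rw [Subgroup.subgroupOf, Subgroup.comap_map_eq_self_of_injective H.subtype_injective]
    have hKH : K.map H.subtype ≤ H := Subgroup.map_subtype_le K
    refine h4 (K.map H.subtype) ?_ ⟨?_, ?_, ?_⟩
    · have h8 : K.map H.subtype ≤ L := by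
        rw [← hmap hLH]
        exact Subgroup.map_mono hK.le
      refine lt_of_le_of_ne h8 fun h => hK.ne ?_
      rw [← hKeq, h]
    · intro h
      apply h5
      rw [← hKeq, h, Subgroup.bot_subgroupOf]
    · rw [← hperf hKH, hKeq]; exact h6
    · rw [hKeq]; exact h7

theorem ne_bot_of_mem {H : Type*} [Group H] {L : Subgroup H} (hL : L ∈ calC H) : L ≠ ⊥ := hL.1
theorem perfect_of_mem {H : Type*} [Group H] {L : Subgroup H} (hL : L ∈ calC H) : ⁅L, L⁆ = L := hL.2.1
theorem subnormal_of_mem {H : Type*} [Group H] {L : Subgroup H} (hL : L ∈ calC H) : L.IsSubnormal := hL.2.2.1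

/-- a perfect subnormal subgroup of a `𝒞`-component is trivial or everything -/
theorem eq_of_mem {H : Type*} [Group H] {L K : Subgroup H} (hL : L ∈ calC H) (hK : K ≤ L) (h1 : K ≠ ⊥)
    (h2 : ⁅K, K⁆ = K) (h3 : K.IsSubnormal) : K = L := by
  by_contra h
  exact hL.2.2.2 K (lt_of_le_of_ne hK h) ⟨h1, h2, h3⟩

/-- a subgroup subnormal in `L`, with `L` subnormal in `H`, is subnormal in `H` -/
theorem subnormal_trans {H : Type*} [Group H] {K L : Subgroup H} (hKL : K ≤ L)
    (hK : (K.subgroupOf L).IsSubnormal) (hL : L.IsSubnormal) : K.IsSubnormal :=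
  Subgroup.IsSubnormal.trans hKL hK hL

/-- Proper normal subgroups of a `𝒞`-component are solvable. -/
theorem solvable_of_normal {H : Type*} [Group H] [Finite H] {L : Subgroup H} (hL : L ∈ calC H)
    {N : Subgroup H} (hNL : N ≤ L) (hN : L ≤ normalizer (N : Set H)) (hne : N ≠ L) :
    Group.IsSolvable ↥N := by
  apply solvable_of_perf_eq_bot
  by_contra hb
  have h1 : (perf N).IsSubnormal := by
    refine subnormal_trans ((perf_le N).trans hNL) ?_ hL.2.2.1
    have h2 : ((perf N).subgroupOf L).Normal := by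
      rw [Subgroup.normal_subgroupOf_iff_le_normalizer ((perf_le N).trans hNL)]
      exact hN.trans (normalizer_le_normalizer_perf N)
    exact h2.isSubnormal
  have h3 := eq_of_mem hL ((perf_le N).trans hNL) hb (perf_perfect N) h1
  exact hne (le_antisymm hNL (h3 ▸ perf_le N))

/-- `𝒞`-components pass to intermediate subgroups. -/
theorem mem_calC_of_le {L X H : Subgroup G} (hLX : L ≤ X) (hXH : X ≤ H)
    (hL : L.subgroupOf H ∈ calC ↥H) : L.subgroupOf X ∈ calC ↥X := by
  have hLH : L ≤ H := hLX.trans hXH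
  rw [mem_calC_iff hLH] at hL
  rw [mem_calC_iff hLX]
  obtain ⟨h1, h2, h3, h4⟩ := hL
  have key : ∀ K : Subgroup G, K ≤ X → (K.subgroupOf H).IsSubnormal → (K.subgroupOf X).IsSubnormal := by
    intro K hKX hK
    have := hK.comap (Subgroup.inclusion hXH)
    exact this
  refine ⟨h1, h2, key L hLX h3, ?_⟩
  rintro K hK ⟨h5, h6, h7⟩
  refine h4 K hK ⟨h5, h6, ?_⟩
  -- `K` is subnormal in `L` and `L` is subnormal in `H`
  have h8 : (K.subgroupOf L).IsSubnormal := by
    have := h7.comap (Subgroup.inclusion hLX)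
    exact this
  have h9 : ((K.subgroupOf H).subgroupOf (L.subgroupOf H)).IsSubnormal := by
    have e : ((K.subgroupOf H).subgroupOf (L.subgroupOf H)) =
        (K.subgroupOf L).comap ((Subgroup.subgroupOfEquivOfLe hLH).toMonoidHom) := by
      ext x
      simp [Subgroup.mem_subgroupOf]
    rw [e]
    exact h8.comap _
  exact Subgroup.IsSubnormal.trans (Subgroup.comap_mono hK.le) h9 h3

end Cfsg.Agent.QTUniq.CComp
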