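import Cfsg.Prelude.Def_Quasithin
import Cfsg.Agent.QTUniq.CComp
import Cfsg.Agent.SignalizersComponents.PCompCore

/-!
# A `𝒞`-component of `⟨L, T⟩` lies in a `𝒞`-component of every overgroup of `⟨L, T⟩`

`exists_le_of_mem`: `T` Sylow in `X`, `L ∈ 𝒞(⟨L, T⟩)`, under the structural properties of `𝒞`-components (S1820)
for `X` and for `⟨L, T⟩`.
-/

set_option autoImplicit false

namespace Cfsg.Agent.QTUniq.Over

open Subgroup Cfsg.Agent.TwoFusion.PerfCore Cfsg.Agent.QTUniq.CComp
open scoped commutatorElement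

universe u

/-- The odd order theorem. -/
def OddOrd : Prop := ∀ (G : Type u) [Group G] [Finite G], Odd (Nat.card G) → Group.IsSolvable G

/-- A group is *`𝒞`-like*: perfect, nontrivial, with all proper normal subgroups solvable. It has a largest proper
normal subgroup. -/
theorem exists_largest {Λ : Type*} [Group Λ] [Finite Λ] [Nontrivial Λ]
    (hp : ⁅(⊤ : Subgroup Λ), (⊤ : Subgroup Λ)⁆ = ⊤)
    (hs : ∀ N : Subgroup Λ, N.Normal → N ≠ ⊤ → Group.IsSolvable ↥N) :
    ∃ M : Subgroup Λ, M.Normal ∧ M ≠ ⊤ ∧ ∀ N : Subgroup Λ, N.Normal → N ≠ ⊤ → N ≤ M := by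
  classical
  have hfin : Set.Finite {N : Subgroup Λ | N.Normal ∧ N ≠ ⊤} := Set.toFinite _
  obtain ⟨M, hM⟩ := hfin.exists_maximal ⟨⊥, inferInstance, bot_ne_top⟩
  obtain ⟨hMn, hMt⟩ := hM.prop
  refine ⟨M, hMn, hMt, fun N hN hNt => ?_⟩
  have := hMn
  have := hN
  by_contra hNM
  have h1 : M ⊔ N = ⊤ := by
    by_contra h2
    exact hNM (le_sup_right.trans (hM.2 ⟨Subgroup.sup_normal M N, h2⟩ le_sup_left))
  apply hMt
  have h3 : (⊤ : Subgroup Λ).map (QuotientGroup.mk' M) = N.map (QuotientGroup.mk' M) := by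
    rw [← h1, Subgroup.map_sup, QuotientGroup.map_mk'_self, bot_sup_eq]
  have h4 : (⊤ : Subgroup Λ) ≤ (QuotientGroup.mk' M).ker := by
    refine le_ker_of_perfect hp _ ?_
    rw [h3]
    have := hs N hN hNt
    exact Group.isSolvable_of_surjective ((QuotientGroup.mk' M).subgroupMap_surjective N)
  rw [QuotientGroup.ker_mk'] at h4
  exact top_le_iff.1 h4

/-- A subgroup containing a Sylow 2-subgroup is not central modulo the largest proper normal subgroup. -/
theorem not_central {Λ : Type u} [Group Λ] [Finite Λ] [Nontrivial Λ] (hFT : OddOrd.{u})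
    (hp : ⁅(⊤ : Subgroup Λ), (⊤ : Subgroup Λ)⁆ = ⊤) {M : Subgroup Λ} (hMn : M.Normal) (hMt : M ≠ ⊤)
    (hM : ∀ N : Subgroup Λ, N.Normal → N ≠ ⊤ → N ≤ M) (P : Subgroup Λ) (hP : ¬ 2 ∣ P.index)
    (hc : ∀ x ∈ P, ∀ l : Λ, x * l * x⁻¹ * l⁻¹ ∈ M) : False := by
  have hperf : ∀ Z : Subgroup Λ, Z.Normal → (∀ x ∈ Z, ∀ l : Λ, x * l * x⁻¹ * l⁻¹ ∈ M) → Z ≠ ⊤ := by
    rintro Z - hZ rfl
    apply hMt
    rw [eq_top_iff, ← hp, Subgroup.commutator_le]
    intro a ha b _
    exact hZ a ha b
  let Z : Subgroup Λ := (Subgroup.center (Λ ⧸ M)).comap (QuotientGroup.mk' M)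
  have hZmem : ∀ x : Λ, x ∈ Z ↔ ∀ l : Λ, x * l * x⁻¹ * l⁻¹ ∈ M := by
    intro x
    rw [Subgroup.mem_comap, Subgroup.mem_center_iff]
    constructor
    · intro h l
      have h1 := h (QuotientGroup.mk' M l)
      rw [← map_mul, ← map_mul, QuotientGroup.mk'_eq_mk'] at h1
      obtain ⟨z, hz, hz2⟩ := h1
      have h3 : x * l * x⁻¹ * l⁻¹ = l * x * z * x⁻¹ * l⁻¹ := by rw [hz2]
      rw [h3]
      have h4 : l * x * z * x⁻¹ * l⁻¹ = (l * x) * z * (l * x)⁻¹ := by group
      rw [h4]
      exact hMn.conj_mem z hz _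
    · intro h g
      obtain ⟨l, rfl⟩ := QuotientGroup.mk'_surjective M g
      rw [← map_mul, ← map_mul, eq_comm, QuotientGroup.mk'_eq_mk']
      refine ⟨(x * l)⁻¹ * (l * x), ?_, by group⟩
      have h5 := M.inv_mem (h l)
      have h6 := hMn.conj_mem _ h5 (x * l)⁻¹
      have e : (x * l)⁻¹ * (x * l * x⁻¹ * l⁻¹)⁻¹ * (x * l)⁻¹⁻¹ = (x * l)⁻¹ * (l * x) := by group
      rwa [e] at h6
  have hZn : Z.Normal := inferInstance
  have hZM : Z ≤ M := hM Z hZn (hperf Z hZn fun x hx => (hZmem x).1 hx)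
  have hPM : P ≤ M := fun x hx => hZM ((hZmem x).2 (hc x hx))
  have hodd : Odd (Nat.card (Λ ⧸ M)) := by
    rw [← Nat.not_even_iff_odd, even_iff_two_dvd]
    intro h
    exact hP (h.trans (Subgroup.index_dvd_of_le hPM))
  have hsol := hFT (Λ ⧸ M) hodd
  have h7 : (⊤ : Subgroup Λ) ≤ (QuotientGroup.mk' M).ker := by
    refine le_ker_of_perfect hp _ ?_
    exact inferInstance
  rw [QuotientGroup.ker_mk'] at h7
  exact hMt (top_le_iff.1 h7)

/-- A perfect subgroup normalizes every subgroup whose normalizer has index at most two. -/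
theorem le_normalizer_of_perfect {X : Type*} [Group X] {P K : Subgroup X} (hP : ⁅P, P⁆ = P)
    (hK : K.Normal ∨ (normalizer (K : Set X)).index = 2) : P ≤ normalizer (K : Set X) := by
  rcases hK with hK | hK
  · exact le_top.trans (Subgroup.normalizer_eq_top (H := K)).ge
  · rw [← hP, Subgroup.commutator_le]
    intro a _ b _
    rw [commutatorElement_def]
    have h := @Subgroup.mul_mem_iff_of_index_two X _ (normalizer (K : Set X)) hK
    rw [h, h, h, inv_mem_iff, inv_mem_iff]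
    by_cases h1 : a ∈ normalizer (K : Set X) <;> by_cases h2 : b ∈ normalizer (K : Set X) <;> simp [h1, h2]

/-- Images of `𝒞`-components under isomorphisms. -/
theorem map_mem_calC {H H' : Type*} [Group H] [Group H'] {L : Subgroup H} (e : H ≃* H') (hL : L ∈ calC H) :
    L.map e.toMonoidHom ∈ calC H' := by
  obtain ⟨h1, h2, h3, h4⟩ := hL
  refine ⟨?_, map_perfect h2 _, h3.map e.surjective, ?_⟩
  · intro h
    exact h1 ((Subgroup.map_eq_bot_iff_of_injective _ e.injective).1 h)
  · rintro K hK ⟨h5, h6, h7⟩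
    refine h4 (K.map e.symm.toMonoidHom) ?_ ⟨?_, map_perfect h6 _, h7.map e.symm.surjective⟩
    · have e1 : (K.map e.symm.toMonoidHom).map e.toMonoidHom = K := by
        rw [Subgroup.map_map]
        have : e.toMonoidHom.comp e.symm.toMonoidHom = MonoidHom.id H' := by
          ext x; simp
        rw [this, Subgroup.map_id]
      refine lt_of_le_of_ne ?_ ?_
      · rw [← Subgroup.map_le_map_iff_of_injective (f := e.toMonoidHom) e.injective, e1]
        exact hK.le
      · intro h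
        apply hK.ne
        rw [← e1, h]
    · intro h
      exact h5 ((Subgroup.map_eq_bot_iff_of_injective _ e.symm.injective).1 h)

/-- the two-conjugates step: if `t ∈ K` and `⁅L, Lᵗ⁆` is contained in a 2-group, then `L ≤ K`. -/
theorem le_of_commutator_conj {X : Type*} [Group X] [Finite X] {L K : Subgroup X} (hL : ⁅L, L⁆ = L)
    (hLK : L ≤ normalizer (K : Set X)) {t : X} (ht : t ∈ K) {D : Subgroup X} (hD : IsPGroup 2 D)
    (h : ∀ l ∈ L, ∀ m ∈ L, ⁅l, t * m * t⁻¹⁆ ∈ D) : L ≤ K := by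
  let N : Subgroup X := normalizer (K : Set X)
  have hKN : K ≤ N := Subgroup.le_normalizer
  have hKn : (K.subgroupOf N).Normal := (Subgroup.normal_subgroupOf_iff_le_normalizer hKN).2 le_rfl
  let φ : ↥N →* ↥N ⧸ K.subgroupOf N := QuotientGroup.mk' (K.subgroupOf N)
  have hLperf : ⁅L.subgroupOf N, L.subgroupOf N⁆ = L.subgroupOf N := by
    rw [← (Subgroup.map_injective N.subtype_injective).eq_iff, Subgroup.map_commutator,
      Subgroup.subgroupOf_map_subtype, inf_eq_left.2 hLK, hL]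
  have h1 : (L.subgroupOf N).map φ ≤ (D.subgroupOf N).map φ := by
    conv_lhs => rw [← hLperf, Subgroup.map_commutator]
    rw [Subgroup.commutator_le]
    rintro _ ⟨⟨l, hlN⟩, hl, rfl⟩ _ ⟨⟨m, hmN⟩, hm, rfl⟩
    have hl' : l ∈ L := hl
    have hm' : m ∈ L := hm
    have htN : t ∈ N := hKN ht
    have e1 : φ ⟨m, hmN⟩ = φ (⟨t, htN⟩ * ⟨m, hmN⟩ * ⟨t, htN⟩⁻¹) := by
      have e2 : φ ⟨t, htN⟩ = 1 := by
        rw [← MonoidHom.mem_ker, QuotientGroup.ker_mk', Subgroup.mem_subgroupOf]
        exact ht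
      rw [map_mul, map_mul, map_inv, e2, one_mul, inv_one, mul_one]
    rw [e1, ← map_commutatorElement]
    refine ⟨_, ?_, rfl⟩
    rw [SetLike.mem_coe, Subgroup.mem_subgroupOf]
    exact h l hl' m hm'
  have h2 : IsPGroup 2 ((L.subgroupOf N).map φ) :=
    ((hD.comap_of_injective N.subtype N.subtype_injective).map φ).to_le h1
  have h3 : Group.IsSolvable ↥((L.subgroupOf N).map φ) := by
    have : Fact (Nat.Prime 2) := ⟨Nat.prime_two⟩
    have := h2.isNilpotent
    infer_instance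
  have h4 := le_ker_of_perfect hLperf φ h3
  rw [QuotientGroup.ker_mk'] at h4
  intro x hx
  exact h4 (show (⟨x, hLK hx⟩ : ↥N) ∈ L.subgroupOf N from hx)

theorem perfectCore_perfect (X : Type*) [Group X] : ⁅perfectCore X, perfectCore X⁆ = perfectCore X := by
  apply le_antisymm (Subgroup.commutator_le_self _)
  refine sSup_le fun P hP => ?_
  have h : ⁅P, P⁆ = P := hP
  rw [← h]
  exact Subgroup.commutator_mono (le_sSup hP) (le_sSup hP)

theorem perfectCore_eq (X : Type*) [Group X] : perfectCore X = perf (⊤ : Subgroup X) := by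
  apply le_antisymm
  · exact le_perf le_top (perfectCore_perfect X)
  · exact le_sSup (perf_perfect _)

instance perfectCore_normal (X : Type*) [Group X] : (perfectCore X).Normal := by
  rw [perfectCore_eq]
  exact perf_normal inferInstance

/-- the subgroup of elements normalizing `M` and acting on `L` trivially modulo `M` -/
def actTriv {X : Type*} [Group X] (L M : Subgroup X) : Subgroup X where
  carrier := {h | h ∈ normalizer (M : Set X) ∧ ∀ l ∈ L, h * l * h⁻¹ * l⁻¹ ∈ M}
  one_mem' := ⟨Subgroup.one_mem _, fun l _ => by simp [M.one_mem]⟩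
  mul_mem' := by
    rintro h k ⟨hh, hh'⟩ ⟨hk, hk'⟩
    refine ⟨Subgroup.mul_mem _ hh hk, fun l hl => ?_⟩
    have e : h * k * l * (h * k)⁻¹ * l⁻¹ = (h * (k * l * k⁻¹ * l⁻¹) * h⁻¹) * (h * l * h⁻¹ * l⁻¹) := by group
    rw [e]
    exact M.mul_mem ((Subgroup.mem_normalizer_iff.1 hh _).1 (hk' l hl)) (hh' l hl)
  inv_mem' := by
    rintro h ⟨hh, hh'⟩
    refine ⟨Subgroup.inv_mem _ hh, fun l hl => ?_⟩
    have h1 := M.inv_mem (hh' l hl)
    have hi : h⁻¹ ∈ normalizer (M : Set X) := Subgroup.inv_mem _ hh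
    have h2 := (Subgroup.mem_normalizer_iff.1 hi _).1 h1
    have e : h⁻¹ * (h * l * h⁻¹ * l⁻¹)⁻¹ * h⁻¹⁻¹ = h⁻¹ * l * h⁻¹⁻¹ * l⁻¹ := by group
    rwa [e] at h2

/-- **A `𝒞`-component of `⟨L, T⟩` lies in a `𝒞`-component of the overgroup `X`.** -/
theorem exists_le_of_mem {X : Type u} [Group X] [Finite X] (hFT : OddOrd.{u}) (T : Sylow 2 X) (L : Subgroup X)
    (h1 : sSup (calC X) = perfectCore X)
    (h3 : ∀ K ∈ calC X, K.Normal ∨ (normalizer (K : Set X)).index = 2)
    (hLb : L ≠ ⊥) (hLp : ⁅L, L⁆ = L) (hLs : (L.subgroupOf (L ⊔ (T : Subgroup X))).IsSubnormal)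
    (hsol : ∀ N : Subgroup ↥L, N.Normal → N ≠ ⊤ → Group.IsSolvable ↥N)
    (hcomm : ∀ t ∈ (T : Subgroup X), t ∉ normalizer (L : Set X) →
      ∃ D : Subgroup X, IsPGroup 2 ↥D ∧ ∀ l ∈ L, ∀ m ∈ L, ⁅l, t * m * t⁻¹⁆ ∈ D) :
    ∃ K ∈ calC X, L ≤ K := by
  classical
  have : Fact (Nat.Prime 2) := ⟨Nat.prime_two⟩
  set W : Subgroup X := L ⊔ (T : Subgroup X) with hW
  have hLW : L ≤ W := le_sup_left
  have hTW : (T : Subgroup X) ≤ W := le_sup_right
  have hnorm : ∀ K ∈ calC X, L ≤ normalizer (K : Set X) := fun K hK => le_normalizer_of_perfect hLp (h3 K hK)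
  by_cases hA : ∀ K ∈ calC X, (T : Subgroup X) ⊓ K ≤ normalizer (L : Set X)
  swap
  · -- some element of some `T ∩ K` moves `L`
    push Not at hA
    obtain ⟨K, hK, hTK⟩ := hA
    refine ⟨K, hK, ?_⟩
    obtain ⟨t, ht, htL⟩ := SetLike.not_le_iff_exists.1 hTK
    obtain ⟨D, hD, hDc⟩ := hcomm t ht.1 htL
    exact le_of_commutator_conj hLp (hnorm K hK) ht.2 hD hDc
  · by_contra hno
    push Not at hno
    -- the largest proper normal subgroup `M` of `L`
    have hnt : Nontrivial ↥L := (Subgroup.nontrivial_iff_ne_bot L).2 hLb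
    have hperf : ⁅(⊤ : Subgroup ↥L), (⊤ : Subgroup ↥L)⁆ = ⊤ := by
      rw [← (Subgroup.map_injective L.subtype_injective).eq_iff, Subgroup.map_commutator,
        ← MonoidHom.range_eq_map, Subgroup.range_subtype, hLp]
    obtain ⟨M, hMn, hMt, hMmax⟩ := exists_largest hperf hsol
    let M' : Subgroup X := M.map L.subtype
    have hM'L : M' ≤ L := Subgroup.map_subtype_le M
    -- `M'` is invariant under the normalizer of `L`
    have hMchar : normalizer (L : Set X) ≤ normalizer (M' : Set X) := by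
      have key : ∀ g ∈ normalizer (L : Set X), ∀ x ∈ M', g * x * g⁻¹ ∈ M' := by
        intro g hg x hx
        let f : MulAut ↥L := (Subgroup.normalizerMonoidHom L) ⟨g, hg⟩
        have h5 : (M.map f.toMonoidHom).Normal := Subgroup.Normal.map hMn _ f.surjective
        have h6 : M.map f.toMonoidHom ≠ ⊤ := by
          intro h
          apply hMt
          rw [← Subgroup.map_top_of_surjective f.toMonoidHom f.surjective] at h
          exact Subgroup.map_injective (f := f.toMonoidHom) f.injective h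
        have h7 := hMmax _ h5 h6
        obtain ⟨y, hy, rfl⟩ := hx
        exact ⟨f y, h7 ⟨y, hy, rfl⟩, rfl⟩
      intro g hg
      rw [Subgroup.mem_normalizer_iff]
      intro x
      refine ⟨key g hg x, fun hx => ?_⟩
      have h8 := key g⁻¹ (Subgroup.inv_mem _ hg) _ hx
      have e : g⁻¹ * (g * x * g⁻¹) * g⁻¹⁻¹ = x := by group
      rwa [e] at h8
    -- `T ∩ K` acts trivially on `L` modulo `M'`
    have hact : ∀ K ∈ calC X, (T : Subgroup X) ⊓ K ≤ actTriv L M' := by
      intro K hK t ht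
      have htL := hA K hK ht
      refine ⟨hMchar htL, ?_⟩
      have hD : ⁅(T : Subgroup X) ⊓ K, L⁆ ≤ L := by
        rw [Subgroup.commutator_le]
        intro a ha l hl
        rw [commutatorElement_def]
        exact L.mul_mem ((Subgroup.mem_normalizer_iff.1 (hA K hK ha) l).1 hl) (L.inv_mem hl)
      have hDK : ⁅(T : Subgroup X) ⊓ K, L⁆ ≤ K := by
        rw [Subgroup.commutator_le]
        intro a ha l hl
        rw [commutatorElement_def, mul_assoc, mul_assoc, ← mul_assoc l]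
        exact K.mul_mem ha.2 ((Subgroup.mem_normalizer_iff.1 (hnorm K hK hl) _).1 (K.inv_mem ha.2))
      have hDn : L ≤ normalizer ((⁅(T : Subgroup X) ⊓ K, L⁆ : Subgroup X) : Set X) :=
        Subgroup.normalizer_commutator_ge_right _ _
      have h5 : (⁅(T : Subgroup X) ⊓ K, L⁆.subgroupOf L).Normal :=
        (Subgroup.normal_subgroupOf_iff_le_normalizer hD).2 hDn
      have h6 : ⁅(T : Subgroup X) ⊓ K, L⁆.subgroupOf L ≠ ⊤ := by
        intro h
        rw [Subgroup.subgroupOf_eq_top] at h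
        exact hno K hK (h.trans hDK)
      have h7 := hMmax _ h5 h6
      intro l hl
      have h8 : ⁅t, l⁆ ∈ ⁅(T : Subgroup X) ⊓ K, L⁆ := Subgroup.commutator_mem_commutator ht hl
      rw [commutatorElement_def] at h8
      exact ⟨⟨_, hD h8⟩, h7 h8, rfl⟩
    -- hence so does `T ∩ X^∞`
    have hJ : (T : Subgroup X) ⊓ perfectCore X ≤ actTriv L M' := by
      refine SylowSup.inf_sSup_le_rel (p := 2) T.isPGroup' ?_ (calC X) ?_ ?_ h1 _ hact
      · exact Cfsg.Agent.Lib.SylowNormalInf.not_dvd_relIndex T (perfectCore X)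
      · intro K hK
        exact le_sSup hK.2.1
      · intro K hK
        exact le_normalizer_of_perfect (perfectCore_perfect X) (h3 K hK)
    -- `T ∩ L` is a Sylow subgroup of `L`
    have hTL : ¬ 2 ∣ ((T : Subgroup X).subgroupOf L).index := by
      intro h
      have h5 := Cfsg.Agent.SignalizersComponents.PCompCore.relIndex_dvd_index_of_subnormal
        ((T : Subgroup X).subgroupOf W) hLs
      rw [Subgroup.relIndex_subgroupOf hLW] at h5
      have h6 : ((T : Subgroup X).subgroupOf W).index ∣ (T : Subgroup X).index :=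
        Subgroup.relIndex_dvd_index_of_le hTW
      exact T.not_dvd_index ((h.trans h5).trans h6)
    refine not_central hFT hperf hMn hMt hMmax ((T : Subgroup X).subgroupOf L) hTL ?_
    rintro x hx l
    have hxT : (x : X) ∈ (T : Subgroup X) := hx
    have hxJ : (x : X) ∈ perfectCore X := (le_sSup (show ⁅L, L⁆ = L from hLp) : L ≤ perfectCore X) x.2
    have h5 := (hJ ⟨hxT, hxJ⟩).2 l l.2
    obtain ⟨y, hy, hyx⟩ := h5
    have h6 : y = x * l * x⁻¹ * l⁻¹ := Subtype.ext hyx
    exact h6 ▸ hy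

end Cfsg.Agent.QTUniq.Over
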